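import Cfsg.Agent.Lib.FreeInertial.Mult
import Cfsg.Agent.Lib.CyclicDefect.Alg
import Cfsg.Agent.Lib.Block.Singular
import Cfsg.Agent.Lib.Coprime.Conjugacy
import Cfsg.Agent.S0001

/-!
# Sets of characters with idempotent vanishing off the regular elements: normal `p`-subgroups

If the idempotent of the induced set of the quotient by a normal `p`-subgroup is integral, so is
that of the group.
-/

set_option autoImplicit false
set_option linter.unusedSectionVars false
set_option linter.style.haveILetI false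

namespace Cfsg.Agent.Lib.Block.KiyotaOkuyama

open Cfsg Cfsg.Agent.Lib Cfsg.Agent.Lib.Block Cfsg.Agent.Lib.BrauerPairs Cfsg.Agent.Lib.Star
open MonoidAlgebra (single mapDomainRingHom)

universe u

variable {p : ℕ} [Fact p.Prime] {M : Ideal AlgInt} [M.IsPrime] {G : Type u} [Group G] [Finite G]

/-- The idempotent of the set vanishes at `p`-singular elements. -/
def RegSupp (p : ℕ) (U : Set (IrrCharacter G)) : Prop :=
  ∀ x : G, p ∣ orderOf x → blockCoeff U x = 0

section Push

variable (Q : Subgroup G) [Q.Normal] [Fintype Q] {R : Type*} [CommRing R]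

open scoped Classical in
/-- The image in the quotient collects coset sums. -/
theorem coeff_push (a : MonoidAlgebra R G) (x : G) :
    (mapDomainRingHom R (QuotientGroup.mk' Q) a).coeff (QuotientGroup.mk x) =
      ∑ q : Q, a.coeff (x * q) := by
  haveI := Fintype.ofFinite G
  conv_lhs => rw [eq_sum_single a, map_sum]
  rw [coeff_sum_apply]
  have h1 : ∀ g : G, (mapDomainRingHom R (QuotientGroup.mk' Q) (single g (a.coeff g))).coeff
      (QuotientGroup.mk x) = if x⁻¹ * g ∈ Q then a.coeff g else 0 := fun g => by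
    rw [MonoidAlgebra.mapDomainRingHom_apply, MonoidAlgebra.mapDomain_single, coeff_single_if,
      QuotientGroup.mk'_apply]
    exact if_congr QuotientGroup.eq rfl rfl
  simp only [h1]
  rw [← Finset.sum_filter]
  refine (Finset.sum_bij (fun (q : Q) _ => x * (q : G)) (fun q _ => by simp) ?_ ?_ ?_).symm
  · exact fun q _ r _ h => Subtype.ext (mul_left_cancel h)
  · exact fun g hg => ⟨⟨x⁻¹ * g, (Finset.mem_filter.1 hg).2⟩, Finset.mem_univ _, by simp⟩
  · exact fun q _ => rfl

theorem pair_push (ψ : G ⧸ Q → ℂ) (a : MonoidAlgebra ℂ G) :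
    pair ψ (mapDomainRingHom ℂ (QuotientGroup.mk' Q) a) = pair (ψ ∘ QuotientGroup.mk) a := by
  haveI := Fintype.ofFinite G
  conv_lhs => rw [eq_sum_single a, map_sum]
  rw [pair_sum, pair_eq_sum]
  refine Finset.sum_congr rfl fun g _ => ?_
  rw [MonoidAlgebra.mapDomainRingHom_apply, MonoidAlgebra.mapDomain_single, pair_single]
  rfl

theorem isClassCoeff_push {a : MonoidAlgebra R G} (ha : IsClassCoeff a) :
    IsClassCoeff (mapDomainRingHom R (QuotientGroup.mk' Q) a) := by
  classical
  intro u y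
  obtain ⟨x, rfl⟩ := QuotientGroup.mk_surjective y
  obtain ⟨g, rfl⟩ := QuotientGroup.mk_surjective u
  rw [← QuotientGroup.mk_mul, ← QuotientGroup.mk_inv, ← QuotientGroup.mk_mul, coeff_push,
    coeff_push]
  refine Fintype.sum_equiv (MulAut.conjNormal g⁻¹).toEquiv _ _ fun q => ?_
  rw [MulEquiv.toEquiv_eq_coe, MulEquiv.coe_toEquiv, MulAut.conjNormal_apply, inv_inv]
  conv_rhs => rw [← ha g]
  congr 1
  group

theorem toC_push (a : RG M G) :
    toC (mapDomainRingHom (locRing M) (QuotientGroup.mk' Q) a) =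
      mapDomainRingHom ℂ (QuotientGroup.mk' Q) (toC a) := alg_ext fun y => by
  obtain ⟨x, rfl⟩ := QuotientGroup.mk_surjective y
  rw [coeff_toC, coeff_push, coeff_push, AddSubmonoidClass.coe_finsetSum]
  rfl

theorem toK_push (a : RG M G) :
    toK (mapDomainRingHom (locRing M) (QuotientGroup.mk' Q) a) =
      mapDomainRingHom (ResField M) (QuotientGroup.mk' Q) (toK a) := alg_ext fun y => by
  obtain ⟨x, rfl⟩ := QuotientGroup.mk_surjective y
  rw [coeff_toK, coeff_push, coeff_push, map_sum]
  exact Finset.sum_congr rfl fun q _ => (coeff_toK _ _).symm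

/-- An idempotent of the quotient over the residue field lifts to the group. -/
theorem exists_idem_preimage (hM : IsPModular p M) (hQ : IsPGroup p Q) {e : RG M (G ⧸ Q)}
    (he : IsIdempotentElem e) :
    ∃ X : RG M G, IsIdempotentElem X ∧
      toK (mapDomainRingHom (locRing M) (QuotientGroup.mk' Q) X) = toK e := by
  classical
  haveI := resField_charP (M := M) hM
  haveI := Fintype.ofFinite (G ⧸ Q)
  set F := mapDomainRingHom (ResField M) (QuotientGroup.mk' Q) with hF
  set ε := toK e with hε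
  have hεi : IsIdempotentElem ε := he.map toK
  obtain ⟨a, ha⟩ : ∃ a : KG M G, F a = ε := by
    refine ⟨∑ y : G ⧸ Q, single y.out (ε.coeff y), ?_⟩
    rw [map_sum]
    conv_rhs => rw [eq_sum_single ε]
    refine Finset.sum_congr rfl fun y _ => ?_
    rw [hF, MonoidAlgebra.mapDomainRingHom_apply, MonoidAlgebra.mapDomain_single,
      QuotientGroup.mk'_apply, QuotientGroup.out_eq']
  obtain ⟨n, hn⟩ := isNilpotent_of_coset_sums (p := p) hQ (a := a * a - a) fun x => by
    rw [← coeff_push Q (a * a - a) x, ← hF, map_sub, map_mul, ha, hεi.eq, sub_self]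
    rfl
  obtain ⟨d, hd, -, hde⟩ := CyclicDefect.exists_idem
    (show (a * a - a) ^ (n + 1) = 0 by rw [pow_succ, hn, zero_mul])
  obtain ⟨X, hX, hXd, -⟩ := FreeInertial.exists_lift_one (M := M) hd
  refine ⟨X, hX, ?_⟩
  rw [toK_push, hXd, ← hF, hde, map_sub, map_one, map_pow, map_sub, map_one, map_pow, ha,
    hεi.pow_succ_eq, hεi.one_sub.pow_succ_eq, sub_sub_cancel]

end Push

/-- Regular elements in one coset of a normal `p`-subgroup are conjugate. -/
theorem isConj_of_coset {Q : Subgroup G} [Q.Normal] (hQ : IsPGroup p Q) {x y : G}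
    (hx : ¬ p ∣ orderOf x) (hy : ¬ p ∣ orderOf y)
    (h : (QuotientGroup.mk x : G ⧸ Q) = QuotientGroup.mk y) : IsConj x y := by
  have hpp : p.Prime := Fact.out
  -- the powers of a regular element meet `Q` trivially
  have inj : ∀ z : G, ¬ p ∣ orderOf z → ∀ w ∈ Subgroup.zpowers z, w ∈ Q → w = 1 := by
    intro z hz w hw hwQ
    obtain ⟨k, hk⟩ := hQ ⟨w, hwQ⟩
    rw [← orderOf_eq_one_iff]
    refine Nat.eq_one_of_dvd_coprimes ((hpp.coprime_iff_not_dvd.2 hz).pow_left k)
      (orderOf_dvd_of_pow_eq_one (by simpa using congrArg Subtype.val hk))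
      (orderOf_dvd_of_mem_zpowers hw)
  set S := Q ⊔ Subgroup.zpowers x with hS
  have hQS : Q ≤ S := le_sup_left
  have hxS : x ∈ S := Subgroup.mem_sup_right (Subgroup.mem_zpowers x)
  have hyS : y ∈ S := by
    have h1 : x * (x⁻¹ * y) ∈ S := mul_mem hxS (hQS (QuotientGroup.eq.1 h))
    rwa [mul_inv_cancel_left] at h1
  set Q' := Q.subgroupOf S with hQ'
  haveI : Q'.Normal := (inferInstance : Q.Normal).subgroupOf S
  set mk := (QuotientGroup.mk' Q).comp S.subtype with hmk
  have hker : mk.ker = Q' := by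
    rw [hmk, ← MonoidHom.comap_ker, QuotientGroup.ker_mk']; rfl
  have hidx : Q'.index = orderOf (QuotientGroup.mk x : G ⧸ Q) := by
    rw [← hker, Subgroup.index_ker, hmk, MonoidHom.range_comp, Subgroup.range_subtype, hS,
      Subgroup.map_sup, (Subgroup.map_eq_bot_iff Q).2 (QuotientGroup.ker_mk' Q).ge, bot_sup_eq,
      MonoidHom.map_zpowers, Nat.card_zpowers]
    rfl
  have hord : ∀ z : G, ¬ p ∣ orderOf z → orderOf (QuotientGroup.mk z : G ⧸ Q) = orderOf z :=
    fun z hz => by
      refine Nat.dvd_antisymm (orderOf_map_dvd (QuotientGroup.mk' Q) z) (orderOf_dvd_of_pow_eq_one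
        (inj z hz _ (Subgroup.npow_mem_zpowers z _) ((QuotientGroup.eq_one_iff _).1 ?_)))
      rw [QuotientGroup.mk_pow, pow_orderOf_eq_one]
  have hcop : (Nat.card Q').Coprime Q'.index := by
    rw [hidx, hord x hx, Nat.card_congr (Subgroup.subgroupOfEquivOfLe hQS).toEquiv]
    obtain ⟨k, hk⟩ := IsPGroup.iff_card.1 hQ
    rw [hk]
    exact (hpp.coprime_iff_not_dvd.2 hx).pow_left k
  have hcompl : ∀ z (hz : z ∈ S), ¬ p ∣ orderOf z → (QuotientGroup.mk z : G ⧸ Q) = QuotientGroup.mk x →
      Subgroup.IsComplement' Q' (Subgroup.zpowers (⟨z, hz⟩ : S)) := by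
    intro z hz hzr he
    refine Subgroup.isComplement'_of_coprime ?_ ?_
    · rw [Nat.card_zpowers, Subgroup.orderOf_mk, ← hord z hzr, he, ← hidx, Subgroup.card_mul_index]
    · rwa [Nat.card_zpowers, Subgroup.orderOf_mk, ← hord z hzr, he, ← hidx]
  haveI : Group.IsSolvable Q' := by
    haveI : Group.IsNilpotent Q' :=
      (hQ.comap_of_injective S.subtype S.subtype_injective).isNilpotent
    infer_instance
  obtain ⟨g, hg⟩ := Cfsg.Agent.S0001.result Q' hcop (Or.inl inferInstance) _ _
    (hcompl x hxS hx rfl) (hcompl y hyS hy h.symm)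
  have hw : g * ⟨x, hxS⟩ * g⁻¹ ∈ Subgroup.zpowers (⟨y, hyS⟩ : S) := hg ▸
    Subgroup.smul_mem_pointwise_smul _ _ _ (Subgroup.mem_zpowers _)
  obtain ⟨i, hi⟩ := Subgroup.mem_zpowers_iff.1 hw
  have hw' : (g : G) * x * (g : G)⁻¹ = y ^ i := by
    simpa using (congrArg Subtype.val hi).symm
  -- `g` fixes `x` modulo `Q`
  have hgc : (QuotientGroup.mk (g : G) : G ⧸ Q) ∈ Subgroup.zpowers (QuotientGroup.mk x : G ⧸ Q) := by
    have h1 : QuotientGroup.mk' Q g ∈ S.map (QuotientGroup.mk' Q) :=
      Subgroup.mem_map_of_mem _ g.2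
    have h2 : S.map (QuotientGroup.mk' Q) = Subgroup.zpowers (QuotientGroup.mk x) := by
      rw [hS, Subgroup.map_sup, (Subgroup.map_eq_bot_iff Q).2 (QuotientGroup.ker_mk' Q).ge,
        bot_sup_eq, MonoidHom.map_zpowers, QuotientGroup.mk'_apply]
    exact h2 ▸ h1
  have heq : (QuotientGroup.mk ((g : G) * x * (g : G)⁻¹) : G ⧸ Q) = QuotientGroup.mk x := by
    obtain ⟨j, hj⟩ := Subgroup.mem_zpowers_iff.1 hgc
    rw [QuotientGroup.mk_mul, QuotientGroup.mk_mul, QuotientGroup.mk_inv, ← hj]
    group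
  refine isConj_iff.2 ⟨g, ?_⟩
  rw [hw'] at heq ⊢
  have hmem : y ^ i * y⁻¹ ∈ Subgroup.zpowers y :=
    mul_mem (Subgroup.zpow_mem _ (Subgroup.mem_zpowers y) i) (inv_mem (Subgroup.mem_zpowers y))
  refine mul_inv_eq_one.1 (inj y hy _ hmem ((QuotientGroup.eq_one_iff _).1 ?_))
  rw [QuotientGroup.mk_mul, QuotientGroup.mk_inv, heq, h, mul_inv_cancel]

/-- Idempotents with the traces of a set of characters are its central idempotent. -/
theorem eq_eIdem_of_trace (U : Set (IrrCharacter G)) {e : MonoidAlgebra ℂ G} (he : IsIdempotentElem e)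
    (h : ∀ χ : IrrCharacter G, pair (χ : G → ℂ) e = pair (χ : G → ℂ) (eIdem U)) : e = eIdem U := by
  classical
  haveI := Fintype.ofFinite G
  set z := eIdem U with hz
  have key : ∀ (χ : IrrCharacter G) (b : MonoidAlgebra ℂ G),
      pair (χ : G → ℂ) (e * b) = pair (χ : G → ℂ) (z * b) := by
    intro χ b
    rw [hz, pair_mul_of_class χ.2 (isClassCoeff_eIdem U), omega_eIdem]
    obtain ⟨n, ρ, hρ, hχ⟩ := χ.2
    have htr : ∀ w : MonoidAlgebra ℂ G,
        pair (χ : G → ℂ) w = LinearMap.trace ℂ _ (ρ.asAlgebraHom w) := by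
      intro w
      conv_rhs => rw [eq_sum_single w]
      simp [← hχ, pair_eq_sum, map_sum, Representation.character]
    have hone : pair (χ : G → ℂ) 1 = (χ : G → ℂ) 1 := by
      rw [MonoidAlgebra.one_def, pair_single, one_mul]
    have zero_of_trace : ∀ T : Module.End ℂ (Fin n → ℂ), IsIdempotentElem T →
        LinearMap.trace ℂ _ T = 0 → T = 0 := by
      intro T hT h0
      have h1 := ((LinearMap.isProj_range_iff_isIdempotentElem T).2 hT).trace
      rw [h0, eq_comm, Nat.cast_eq_zero, Submodule.finrank_eq_zero, LinearMap.range_eq_bot] at h1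
      exact h1
    have hei : IsIdempotentElem (ρ.asAlgebraHom e) := he.map ρ.asAlgebraHom
    have hd : pair (χ : G → ℂ) e = (if χ ∈ U then 1 else 0) * (χ : G → ℂ) 1 := by
      rw [h χ, hz, ← mul_one (eIdem U), pair_mul_of_class χ.2 (isClassCoeff_eIdem U), omega_eIdem, hone]
    rw [htr, htr, map_mul]
    split_ifs with hU
    · rw [if_pos hU, one_mul, ← hone, htr, htr, map_one] at hd
      have h2 := zero_of_trace _ hei.one_sub (by rw [map_sub, hd, sub_self])
      rw [sub_eq_zero] at h2
      rw [← h2, one_mul, one_mul]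
    · rw [if_neg hU, zero_mul, htr] at hd
      rw [zero_of_trace _ hei hd, zero_mul, map_zero, zero_mul]
  refine alg_ext fun y => ?_
  have h0 : ∀ χ : IrrCharacter G, pair (χ : G → ℂ) (e * single y⁻¹ 1) =
      pair (χ : G → ℂ) (z * single y⁻¹ 1) := fun χ => key χ _
  have hreg : ∀ w : MonoidAlgebra ℂ G,
      ∑ χ : IrrCharacter G, (χ : G → ℂ) 1 * pair (χ : G → ℂ) w = Nat.card G * w.coeff 1 := by
    intro w
    simp only [pair_eq_sum, Finset.mul_sum]
    rw [Finset.sum_comm, Finset.sum_eq_single 1]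
    · have h1 := Char.sum_degree_mul (G := G) 1
      rw [if_pos rfl] at h1
      rw [← h1, Finset.sum_mul]
      exact Finset.sum_congr rfl fun χ _ => by ring
    · intro g _ hg
      have h1 := Char.sum_degree_mul (G := G) g
      rw [if_neg hg] at h1
      rw [← mul_zero (w.coeff g), ← h1, Finset.mul_sum]
      exact Finset.sum_congr rfl fun χ _ => by ring
    · simp
  have h1 : (Nat.card G : ℂ) * (e * single y⁻¹ 1).coeff 1 =
      Nat.card G * (z * single y⁻¹ 1).coeff 1 := by
    rw [← hreg, ← hreg]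
    exact Finset.sum_congr rfl fun χ _ => by rw [h0 χ]
  simpa [Nat.card_pos.ne'] using h1

open scoped Classical in
/-- Descent along a normal `p`-subgroup. -/
theorem intR_of_quotient (hM : IsPModular p M) {Q : Subgroup G} [Q.Normal] (hQ : IsPGroup p Q)
    (IH : ∀ U' : Set (IrrCharacter (G ⧸ Q)), RegSupp p U' → IntR M (eIdem U'))
    {U : Set (IrrCharacter G)} (hU : RegSupp p U) : IntR M (eIdem U) := by
  haveI := Fintype.ofFinite G
  haveI := Fintype.ofFinite (G ⧸ Q)
  haveI := Fintype.ofFinite Q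
  set z := eIdem U with hz
  set π := QuotientGroup.mk' Q with hπ
  set zb := mapDomainRingHom ℂ π z with hzb
  let infl : IrrCharacter (G ⧸ Q) → IrrCharacter G := fun ψ =>
    ⟨(ψ : G ⧸ Q → ℂ) ∘ QuotientGroup.mk' Q,
      Char.isIrrCharacter_comp ψ.2 (QuotientGroup.mk' Q) (QuotientGroup.mk'_surjective Q)⟩
  set U' : Set (IrrCharacter (G ⧸ Q)) := {ψ | infl ψ ∈ U} with hU'
  have hzb' : zb = eIdem U' := by
    refine eq_of_omega_eq (isClassCoeff_push Q (isClassCoeff_eIdem U)) (isClassCoeff_eIdem U')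
      fun ψ => ?_
    rw [omega_eIdem, omega, hzb, hπ, pair_push]
    have h1 : omega (infl ψ : G → ℂ) z = if ψ ∈ U' then 1 else 0 := by
      rw [hz, omega_eIdem]
      exact if_congr (by simp [hU']) rfl rfl
    rw [← h1, omega]
    rfl
  have hU'r : RegSupp p U' := by
    intro y hy
    rw [← coeff_eIdem, ← hzb']
    obtain ⟨x, rfl⟩ := QuotientGroup.mk_surjective y
    rw [hzb, hπ, coeff_push]
    refine Finset.sum_eq_zero fun q _ => ?_
    rw [hz, coeff_eIdem]
    refine hU _ (hy.trans ?_)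
    have h1 := orderOf_map_dvd (QuotientGroup.mk' Q) (x * q)
    rwa [QuotientGroup.mk'_apply, QuotientGroup.mk_mul_of_mem x q.2] at h1
  obtain ⟨E, hE⟩ := exists_toC (IH U' hU'r)
  have hEi : IsIdempotentElem E :=
    toC_injective (by rw [map_mul, hE, (isIdempotentElem_eIdem U').eq])
  obtain ⟨X, hX, hXE⟩ := exists_idem_preimage Q hM hQ hEi
  set e := toC X with he
  have hei : IsIdempotentElem e := hX.map toC
  -- traces at inflated characters
  have hinf : ∀ ψ : IrrCharacter (G ⧸ Q),
      pair ((ψ : G ⧸ Q → ℂ) ∘ QuotientGroup.mk) e = pair ((ψ : G ⧸ Q → ℂ) ∘ QuotientGroup.mk) z := by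
    intro ψ
    rw [← pair_push Q _ e, ← pair_push Q _ z, ← hπ, ← hzb, hzb', ← hE, he, ← toC_push,
      ← FreeInertial.theta_one hM (Char.isClassFunction_of_isIrr ψ.2)
        (hX.map (mapDomainRingHom (locRing M) π)) hXE,
      ← FreeInertial.theta_one hM (Char.isClassFunction_of_isIrr ψ.2) hEi rfl]
  -- the symmetrised difference
  set g : G → ℂ := fun y => conjSum e y - Nat.card G * z.coeff y with hg
  set a : MonoidAlgebra ℂ G := ofFun g with ha
  have hcS : ∀ u y : G, conjSum e (u * y * u⁻¹) = conjSum e y := fun u y => by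
    rw [conjSum, conjSum]
    refine Fintype.sum_equiv (Equiv.mulRight u) _ _ fun c => ?_
    congr 1
    simp [mul_assoc]
  have hac : IsClassCoeff a := fun u y => by
    simp only [ha, coeff_ofFun, hg, hcS, hz, (isClassCoeff_eIdem U) u y]
  have hpair : ∀ χ : G → ℂ, IsClassFunction G χ →
      pair χ a = Nat.card G * (pair χ e - pair χ z) := by
    intro χ hχ
    simp only [pair_eq_sum, ha, coeff_ofFun, hg, sub_mul, Finset.sum_sub_distrib, mul_sub,
      Finset.mul_sum, conjSum, Finset.sum_mul]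
    rw [Finset.sum_comm]
    congr 1
    · have : ∀ c : G, ∑ y : G, e.coeff (c * y * c⁻¹) * χ y = ∑ w : G, e.coeff w * χ w := by
        intro c
        refine Fintype.sum_equiv (MulAut.conj c).toEquiv _ _ fun y => ?_
        rw [MulEquiv.toEquiv_eq_coe, MulEquiv.coe_toEquiv, MulAut.conj_apply, hχ y c]
      simp only [this, Finset.sum_const, Finset.card_univ, nsmul_eq_mul, Finset.mul_sum,
        Nat.card_eq_fintype_card]
    · exact Finset.sum_congr rfl fun y _ => by ring
  have hpush : mapDomainRingHom ℂ π a = 0 := by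
    refine eq_of_omega_eq (isClassCoeff_push Q hac) isClassCoeff_zero fun ψ => ?_
    rw [omega_zero, omega, hπ, pair_push,
      hpair ((ψ : G ⧸ Q → ℂ) ∘ QuotientGroup.mk) (Char.isClassFunction_of_isIrr (infl ψ).2),
      hinf ψ, sub_self, mul_zero, zero_div]
  have hsing : ∀ y : G, p ∣ orderOf y → g y = 0 := fun y hy => by
    have h1 : conjSum e y = 0 := sum_conj_eq_zero_of_idempotent hM hei (intR_toC X) hy
    have h2 : z.coeff y = 0 := by rw [hz, coeff_eIdem]; exact hU y hy
    simp only [hg, h1, h2, mul_zero, sub_zero]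
  have hg0 : ∀ x : G, g x = 0 := by
    intro x
    by_cases hx : p ∣ orderOf x
    · exact hsing x hx
    have h1 : ∑ q : Q, g (x * q) = 0 := by
      have h2 := coeff_push Q a x
      rw [← hπ, hpush] at h2
      simpa [ha] using h2.symm
    set s := Finset.univ.filter (fun q : Q => ¬ p ∣ orderOf (x * (q : G))) with hs
    have h3 : ∑ q : Q, g (x * q) = s.card * g x := by
      rw [← Finset.sum_filter_of_ne (s := Finset.univ) (p := fun q : Q => ¬ p ∣ orderOf (x * (q : G)))
        (fun q _ hq hd => hq (hsing _ hd))]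
      refine (Finset.sum_congr rfl fun q hq => ?_).trans
        ((Finset.sum_const (g x)).trans (nsmul_eq_mul _ _))
      obtain ⟨c, hc⟩ := isConj_iff.1 (isConj_of_coset hQ hx (Finset.mem_filter.1 hq).2
        (QuotientGroup.mk_mul_of_mem x q.2).symm)
      simp only [hg, ← hc, hcS, hz, (isClassCoeff_eIdem U) c x]
    rw [h3, mul_eq_zero, Nat.cast_eq_zero, Finset.card_eq_zero] at h1
    refine h1.resolve_left fun h0 => Finset.notMem_empty (1 : Q) ?_
    rw [← h0, hs, Finset.mem_filter]
    exact ⟨Finset.mem_univ _, by rwa [OneMemClass.coe_one, mul_one]⟩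
  have ha0 : a = 0 := alg_ext fun x => by simp [ha, hg0]
  have heq : e = z := eq_eIdem_of_trace U hei fun χ => by
    have h1 := hpair (χ : G → ℂ) (Char.isClassFunction_of_isIrr χ.2)
    rw [ha0, pair_zero, zero_eq_mul, sub_eq_zero] at h1
    exact h1.resolve_left (Nat.cast_ne_zero.2 Nat.card_pos.ne')
  rw [← heq]
  exact intR_toC X

end Cfsg.Agent.Lib.Block.KiyotaOkuyama
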